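import Cfsg.Agent.H691.AN.Frame

/-!
# S4908: the frame (helper595, after helper691)

`G` with `charDegrees G = D`, not solvable; the socle of `G / Sol(G)` is `T`; no abelian chief factor below `T`: then `G`
has a normal subgroup isomorphic to `T` with solvable quotient.
-/

set_option autoImplicit false

namespace Cfsg.Agent.H595.SD

open Cfsg Cfsg.Agent.H681.DegBasic Cfsg.Agent.H686.CharKit
open Cfsg.Agent.H691.AN (exists_max_normal map_commutator_eq exists_equiv eq_bot_of_perfect exists_rad exists_perfect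
  perfect_le perfect_le_of_solvable)
open scoped commutatorElement

universe u v

/-- there is no abelian chief factor below `T` -/
def NoChief (T : Type v) [Group T] (D : Set ℕ) : Prop :=
  ∀ {G : Type u} [Group G] [Finite G], charDegrees G ⊆ D → ∀ (N V : Subgroup G) [N.Normal] [V.Normal], V ≤ N →
    ((N ⧸ V.subgroupOf N) ≃* T) → ⁅N, N⁆ = N → ⁅V, V⁆ = ⊥ → V ≠ ⊥ →
    (∀ K : Subgroup G, K.Normal → K ≤ V → K = ⊥ ∨ K = V) → False

/-- groups with degree set `D` are not solvable -/
def NotSolv (D : Set ℕ) : Prop :=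
  ∀ {G : Type u} [Group G] [Finite G], Group.IsSolvable G → charDegrees G = D → False

/-- the socle of a group without solvable normal subgroups and with degrees in `D` is `T` -/
def SocIs (T : Type v) [Group T] (D : Set ℕ) : Prop :=
  ∀ {Y : Type u} [Group Y] [Finite Y] [Nontrivial Y], charDegrees Y ⊆ D →
    (∀ K : Subgroup Y, K.Normal → Group.IsSolvable K → K = ⊥) →
    ∃ S : Subgroup Y, S.Normal ∧ Nonempty (S ≃* T) ∧ Subgroup.centralizer (S : Set Y) = ⊥

/-- **The kernel is trivial.** -/
theorem kernel_trivial {T : Type v} [Group T] {D : Set ℕ} (hNC : NoChief.{u, v} T D) {G : Type u} [Group G] [Finite G]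
    (h : charDegrees G ⊆ D)
    (N M : Subgroup G) [hN : N.Normal] [hM : M.Normal] (hMN : M ≤ N) (e : (N ⧸ M.subgroupOf N) ≃* T)
    (hperf : ⁅N, N⁆ = N) (hsol : Group.IsSolvable M) : M = ⊥ := by
  by_contra hne
  obtain ⟨K, hK, hKM, hmax⟩ := exists_max_normal hne
  have hsurj := QuotientGroup.mk'_surjective K
  have iM : (M.map (QuotientGroup.mk' K)).Normal := hM.map _ hsurj
  have iN : (N.map (QuotientGroup.mk' K)).Normal := hN.map _ hsurj
  obtain ⟨e'⟩ := exists_equiv (N := N) hKM.le hMN
  have hmne : M.map (QuotientGroup.mk' K) ≠ ⊥ := by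
    rw [Ne, Subgroup.map_eq_bot_iff, QuotientGroup.ker_mk']
    exact fun h1 => hKM.not_ge h1
  have hmin : ∀ L : Subgroup (G ⧸ K), L.Normal → L ≤ M.map (QuotientGroup.mk' K) →
      L = ⊥ ∨ L = M.map (QuotientGroup.mk' K) := by
    intro L hL hLM
    have h1 : K ≤ L.comap (QuotientGroup.mk' K) := by
      intro x hx
      rw [Subgroup.mem_comap, QuotientGroup.mk'_apply, (QuotientGroup.eq_one_iff x).2 hx]
      exact L.one_mem
    have h2 : L.comap (QuotientGroup.mk' K) ≤ M := by
      intro x hx
      obtain ⟨y, hy, hyx⟩ := hLM hx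
      have h3 : y⁻¹ * x ∈ K := QuotientGroup.eq.1 hyx
      have h4 : x = y * (y⁻¹ * x) := by group
      rw [h4]
      exact M.mul_mem hy (hKM.le h3)
    have h5 : L = (L.comap (QuotientGroup.mk' K)).map (QuotientGroup.mk' K) :=
      (Subgroup.map_comap_eq_self_of_surjective hsurj L).symm
    rcases hmax _ (hL.comap _) h1 h2 with h6 | h6
    · left
      rw [h5, h6, Subgroup.map_eq_bot_iff, QuotientGroup.ker_mk']
    · right
      rw [h5, h6]
  refine hNC (G := G ⧸ K) (fun d hd => h (charDegrees_comp (QuotientGroup.mk' K) hsurj hd))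
    (N.map (QuotientGroup.mk' K)) (M.map (QuotientGroup.mk' K)) (Subgroup.map_mono hMN) (e'.trans e)
    (map_commutator_eq _ hperf) ?_ hmne hmin
  -- the chief factor is abelian
  have hsolM : Group.IsSolvable (M.map (QuotientGroup.mk' K)) :=
    Group.isSolvable_of_surjective ((QuotientGroup.mk' K).subgroupMap_surjective M)
  have hcn : (⁅M.map (QuotientGroup.mk' K), M.map (QuotientGroup.mk' K)⁆ : Subgroup (G ⧸ K)).Normal :=
    inferInstance
  rcases hmin _ hcn (Subgroup.commutator_le_right _ _) with h1 | h1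
  · exact h1
  · exact absurd (eq_bot_of_perfect h1 hsolM) hmne

/-- **The frame.** -/
theorem frame {T : Type v} [Group T] [hT : IsSimpleGroup T] {D : Set ℕ}
    (hns : ∀ {G : Type u} [Group G] [Finite G], Group.IsSolvable G → charDegrees G = D → False)
    (hsoc : ∀ {Y : Type u} [Group Y] [Finite Y] [Nontrivial Y], charDegrees Y ⊆ D →
      (∀ K : Subgroup Y, K.Normal → Group.IsSolvable K → K = ⊥) →
      ∃ S : Subgroup Y, S.Normal ∧ Nonempty (S ≃* T) ∧ Subgroup.centralizer (S : Set Y) = ⊥)
    (hout : ∀ {S : Type u} [Group S] [Finite S] [IsSimpleGroup S], Group.IsSolvable (Cfsg.Out S))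
    (hNC : NoChief.{u, v} T D) {G : Type u} [Group G] [Finite G] (h : charDegrees G = D) :
    ∃ N : Subgroup G, ∃ _ : N.Normal, Nonempty (N ≃* T) ∧ Group.IsSolvable (G ⧸ N) ∧ ⁅N, N⁆ = N := by
  obtain ⟨R, iR, hRs, hR⟩ := exists_rad G
  obtain ⟨N, iN, hNs, hNp⟩ := exists_perfect G
  have hsurj := QuotientGroup.mk'_surjective R
  have hnt : Nontrivial (G ⧸ R) := by
    by_contra hcon
    rw [not_nontrivial_iff_subsingleton] at hcon
    have h1 : R = ⊤ := by
      rw [eq_top_iff]
      intro x _
      exact (QuotientGroup.eq_one_iff x).1 (Subsingleton.elim _ _)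
    subst h1
    exact hns (Group.isSolvable_of_isSolvable_injective (f := (Subgroup.topEquiv (G := G)).symm.toMonoidHom)
      (Subgroup.topEquiv (G := G)).symm.injective) h
  obtain ⟨S, iS, ⟨e⟩, hc⟩ := hsoc (Y := G ⧸ R) (fun d hd => h ▸ charDegrees_comp (QuotientGroup.mk' R) hsurj hd) hR
  have hsimp : IsSimpleGroup S := e.isSimpleGroup
  have hnab : ¬ IsMulCommutative S := by
    intro hcc
    have h1 : Subgroup.centralizer (S : Set (G ⧸ R)) ≥ S := by
      intro x hx
      rw [Subgroup.mem_centralizer_iff]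
      intro y hy
      exact congrArg Subtype.val (hcc.is_comm.comm (⟨y, hy⟩ : S) ⟨x, hx⟩)
    rw [hc] at h1
    have h2 : S = ⊥ := le_bot_iff.1 h1
    have h3 := hsimp.toNontrivial
    rw [h2] at h3
    exact not_subsingleton _ (inferInstance : Subsingleton (⊥ : Subgroup (G ⧸ R)))
  have hSp : ⁅S, S⁆ = S := by
    have h1 : (commutator S) = ⊤ := by
      rcases hsimp.eq_bot_or_eq_top_of_normal (commutator S) inferInstance with h2 | h2
      · exfalso
        apply hnab
        refine ⟨⟨fun a b => ?_⟩⟩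
        have h3 : ⁅a, b⁆ ∈ commutator S := by
          rw [commutator_def]
          exact Subgroup.commutator_mem_commutator (Subgroup.mem_top a) (Subgroup.mem_top b)
        rw [h2, Subgroup.mem_bot, commutatorElement_eq_one_iff_mul_comm] at h3
        exact h3
      · exact h2
    rw [← Subgroup.map_subtype_commutator, h1, ← MonoidHom.range_eq_map, Subgroup.range_subtype]
  -- the image of `N`
  have iN' : (N.map (QuotientGroup.mk' R)).Normal := iN.map _ hsurj
  have himg : N.map (QuotientGroup.mk' R) = S := by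
    apply le_antisymm
    · exact perfect_le hc hout (map_commutator_eq _ hNp)
    · have h1 : Group.IsSolvable ((G ⧸ R) ⧸ N.map (QuotientGroup.mk' R)) := by
        let g : G ⧸ N →* ((G ⧸ R) ⧸ N.map (QuotientGroup.mk' R)) :=
          QuotientGroup.map N (N.map (QuotientGroup.mk' R)) (QuotientGroup.mk' R) (Subgroup.le_comap_map _ _)
        have hg : Function.Surjective g := by
          intro x
          obtain ⟨y, rfl⟩ := QuotientGroup.mk_surjective x
          obtain ⟨z, rfl⟩ := QuotientGroup.mk_surjective y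
          exact ⟨QuotientGroup.mk z, rfl⟩
        exact Group.isSolvable_of_surjective hg
      exact perfect_le_of_solvable h1 hSp
  -- the quotient
  have hMN : N ⊓ R ≤ N := inf_le_left
  have e1 : Nonempty ((N ⧸ (N ⊓ R).subgroupOf N) ≃* S) := by
    let f : N →* N.map (QuotientGroup.mk' R) := (QuotientGroup.mk' R).subgroupMap N
    have hf : Function.Surjective f := (QuotientGroup.mk' R).subgroupMap_surjective N
    have hker : f.ker = (N ⊓ R).subgroupOf N := by
      ext x
      rw [MonoidHom.mem_ker, Subgroup.mem_subgroupOf, Subgroup.mem_inf, Subtype.ext_iff]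
      change (QuotientGroup.mk' R) (x : G) = 1 ↔ _
      rw [QuotientGroup.mk'_apply, QuotientGroup.eq_one_iff]
      exact ⟨fun h => ⟨x.2, h⟩, fun h => h.2⟩
    exact ⟨((QuotientGroup.quotientMulEquivOfEq hker).symm.trans
      (QuotientGroup.quotientKerEquivOfSurjective f hf)).trans (MulEquiv.subgroupCongr himg)⟩
  obtain ⟨e1⟩ := e1
  have hMs : Group.IsSolvable (N ⊓ R : Subgroup G) :=
    Group.isSolvable_of_isSolvable_injective (f := Subgroup.inclusion (inf_le_right : N ⊓ R ≤ R))
      (Subgroup.inclusion_injective _)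
  have hM : N ⊓ R = ⊥ := kernel_trivial hNC h.le N (N ⊓ R) hMN (e1.trans e) hNp hMs
  refine ⟨N, iN, ?_, hNs, hNp⟩
  have h5 : (N ⊓ R).subgroupOf N = ⊥ := by rw [hM, Subgroup.bot_subgroupOf]
  exact ⟨((QuotientGroup.quotientBot.symm.trans (QuotientGroup.quotientMulEquivOfEq h5.symm)).trans e1).trans e⟩

end Cfsg.Agent.H595.SD
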